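import Cfsg.Agent.Lib.Balance.CentralizerCore
import Cfsg.Agent.Lib.PSolvable.Products
import Cfsg.Agent.Lib.PSolvable.HallHigman

/-!
Factorisations of a `p'`-group inherited from the centralisers of a noncyclic elementary abelian
`p`-group acting on it.
-/

set_option autoImplicit false
set_option linter.style.haveILetI false

namespace CfsgLib.Balance

open Cfsg
open scoped Pointwise commutatorElement

variable {H : Type*} [Group H] [Finite H] {p : ℕ}

theorem mem_mul_of_forall {K X' Y' : Subgroup H} {S : Set H}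
    (hX : X' ≤ K) (hY : Y' ≤ K) (hS : S ⊆ ((X' : Set H) * (Y' : Set H))) : S ⊆ K := by
  intro s hs
  obtain ⟨x, hx, y, hy, rfl⟩ := hS hs
  exact mul_mem (hX hx) (hY hy)

theorem commutator_lt_of_normal_nilpotent {R N : Subgroup H} [hR : Group.IsNilpotent R]
    (hn : R ≤ Subgroup.normalizer (N : Set H)) (hNR : N ≤ R) (hN : N ≠ ⊥) : ⁅N, R⁆ < N := by
  refine lt_of_le_of_ne (CfsgLib.CoprimeAction.commutator_le_left hn) fun he => hN ?_
  obtain ⟨n, hn⟩ := (Subgroup.isNilpotent_iff_lowerCentralSeries (S := R)).1 hR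
  rw [eq_bot_iff, ← hn]
  clear hn
  induction n with
  | zero => exact hNR
  | succ n ih =>
    rw [Subgroup.lowerCentralSeries_succ]
    exact he.ge.trans (Subgroup.commutator_mono ih le_rfl)

theorem le_normalizer_commutator_of_le {A N R : Subgroup H}
    (hN : A ≤ Subgroup.normalizer (N : Set H)) (hR : A ≤ Subgroup.normalizer (R : Set H)) :
    A ≤ Subgroup.normalizer ((⁅N, R⁆ : Subgroup H) : Set H) := fun g hg =>
  Subgroup.mem_normalizer_iff_map_conj_eq.2 (by
    rw [Subgroup.map_commutator, Subgroup.mem_normalizer_iff_map_conj_eq.1 (hN hg),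
      Subgroup.mem_normalizer_iff_map_conj_eq.1 (hR hg)])

/-- The nilpotent case of the factorisation lemma. -/
theorem nilpotent_factorization [hp : Fact p.Prime] {A R X' Y' : Subgroup H}
    (hA : IsElementaryAbelian p A) (hA2 : p ^ 2 ≤ Nat.card A) [Group.IsNilpotent R]
    (hR : ¬ p ∣ Nat.card R) (hAR : A ≤ Subgroup.normalizer (R : Set H))
    (hX : X' ≤ R) (hY : Y' ≤ R)
    (hfac : ∀ a ∈ A, a ≠ 1 → ∀ r ∈ R, a * r = r * a → ∃ x ∈ X', ∃ y ∈ Y', r = x * y) :
    ∀ r ∈ R, ∃ x ∈ X', ∃ y ∈ Y', r = x * y := by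
  haveI := hA.1
  have main : ∀ N : Subgroup H, N ≤ R → R ≤ Subgroup.normalizer (N : Set H) →
      A ≤ Subgroup.normalizer (N : Set H) →
      ∀ x ∈ X', ∀ n ∈ N, ∀ y ∈ Y', ∃ x' ∈ X', ∃ y' ∈ Y', x * n * y = x' * y' := by
    intro N
    induction N using WellFoundedLT.induction with
    | ind N ih =>
      intro hNR hRn hAn
      rcases eq_or_ne N ⊥ with rfl | hne
      · intro x hx n hn y hy
        exact ⟨x, hx, y, hy, by rw [Subgroup.mem_bot.1 hn, mul_one]⟩
      set N₁ := ⁅N, R⁆ with hN₁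
      have hlt : N₁ < N := commutator_lt_of_normal_nilpotent hRn hNR hne
      have hR₁ : R ≤ Subgroup.normalizer (N₁ : Set H) :=
        le_normalizer_commutator_of_le hRn Subgroup.le_normalizer
      have ih' := ih N₁ hlt (hlt.le.trans hNR) hR₁ (le_normalizer_commutator_of_le hAn hAR)
      have hgen : N ≤ Subgroup.closure {c | c ∈ N ∧ ∃ a ∈ A, a ≠ 1 ∧ a * c = c * a} := by
        refine CfsgLib.CoprimeAction.le_of_centralizers (elemAb_not_isCyclic hA hA2) hAn
          (elemAb_coprime hA fun h => hR (h.trans (Subgroup.card_dvd_of_le hNR)))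
          fun a ha ha1 c hc => Subgroup.subset_closure
            ⟨hc.1, a, ha, ha1, mem_centralizer_singleton.1 hc.2⟩
      intro x hx n hn
      have key : ∀ m ∈ N₁, ∀ x ∈ X', ∀ y ∈ Y', ∃ x' ∈ X', ∃ y' ∈ Y',
          x * (n * m) * y = x' * y' := by
        have hn' := hgen hn
        clear hn hx
        clear x
        induction hn' using Subgroup.closure_induction_right with
        | one =>
          intro m hm x hx y hy
          rw [one_mul]
          exact ih' x hx m hm y hy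
        | mul_right n' hn' c hc ih2 =>
          obtain ⟨hcN, a, ha, ha1, hac⟩ := hc
          obtain ⟨xa, hxa, ya, hya, rfl⟩ := hfac a ha ha1 c (hNR hcN) hac
          have hn'N : n' ∈ N :=
            (Subgroup.closure_le N).2 (fun z hz => hz.1) hn'
          intro m hm x hx y hy
          have hm1 : xa * ya * m * (xa * ya)⁻¹ ∈ N₁ :=
            CfsgLib.CoprimeAction.conj_mem (hR₁ (hNR hcN)) hm
          have hm2 : n'⁻¹ * (xa⁻¹ * n' * xa) ∈ N₁ := by
            rw [show n'⁻¹ * (xa⁻¹ * n' * xa) = ⁅n'⁻¹, xa⁻¹⁆ by rw [commutatorElement_def]; group]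
            exact Subgroup.commutator_mem_commutator (inv_mem hn'N) (inv_mem (hX hxa))
          have hm3 : xa⁻¹ * (xa * ya * m * (xa * ya)⁻¹) * xa ∈ N₁ :=
            CfsgLib.CoprimeAction.conj_mem' (hR₁ (hX hxa)) hm1
          obtain ⟨x', hx', y', hy', he⟩ :=
            ih2 _ (mul_mem hm2 hm3) (x * xa) (mul_mem hx hxa) (ya * y) (mul_mem hya hy)
          refine ⟨x', hx', y', hy', ?_⟩
          rw [← he]
          group
        | mul_inv_cancel n' hn' c hc ih2 =>
          obtain ⟨hcN, a, ha, ha1, hac⟩ := hc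
          have hac' : a * c⁻¹ = c⁻¹ * a := ((show Commute a c from hac).inv_right).eq
          obtain ⟨xa, hxa, ya, hya, hceq⟩ := hfac a ha ha1 c⁻¹ (hNR (inv_mem hcN)) hac'
          have hn'N : n' ∈ N :=
            (Subgroup.closure_le N).2 (fun z hz => hz.1) hn'
          intro m hm x hx y hy
          have hm1 : xa * ya * m * (xa * ya)⁻¹ ∈ N₁ :=
            CfsgLib.CoprimeAction.conj_mem (hR₁ (hceq ▸ hNR (inv_mem hcN))) hm
          have hm2 : n'⁻¹ * (xa⁻¹ * n' * xa) ∈ N₁ := by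
            rw [show n'⁻¹ * (xa⁻¹ * n' * xa) = ⁅n'⁻¹, xa⁻¹⁆ by rw [commutatorElement_def]; group]
            exact Subgroup.commutator_mem_commutator (inv_mem hn'N) (inv_mem (hX hxa))
          have hm3 : xa⁻¹ * (xa * ya * m * (xa * ya)⁻¹) * xa ∈ N₁ :=
            CfsgLib.CoprimeAction.conj_mem' (hR₁ (hX hxa)) hm1
          obtain ⟨x', hx', y', hy', he⟩ :=
            ih2 _ (mul_mem hm2 hm3) (x * xa) (mul_mem hx hxa) (ya * y) (mul_mem hya hy)
          refine ⟨x', hx', y', hy', ?_⟩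
          rw [← he, hceq]
          group
      intro y hy
      obtain ⟨x', hx', y', hy', he⟩ := key 1 (one_mem _) x hx y hy
      exact ⟨x', hx', y', hy', by rwa [mul_one] at he⟩
  intro r hr
  obtain ⟨x', hx', y', hy', he⟩ :=
    main R le_rfl Subgroup.le_normalizer hAR 1 (one_mem _) r hr 1 (one_mem _)
  exact ⟨x', hx', y', hy', by rwa [one_mul, mul_one] at he⟩

/-- `S` has the order of a Sylow `r`-subgroup of `Z`. -/
def HasSylowCard (r : ℕ) (S Z : Subgroup H) : Prop :=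
  Nat.card S = r ^ (Nat.card Z).factorization r

theorem hasSylowCard_inf {r : ℕ} [hr : Fact r.Prime] {R Z : Subgroup H} (hR : IsPGroup r R)
    (S : Sylow r ↥Z) (hS : (S : Subgroup ↥Z).map Z.subtype ≤ R) : HasSylowCard r (R ⊓ Z) Z := by
  have h1 : Nat.card ((S : Subgroup ↥Z).map Z.subtype) = r ^ (Nat.card Z).factorization r := by
    rw [Subgroup.card_map_of_injective Z.subtype_injective]
    exact S.card_eq_multiplicity
  refine le_antisymm ?_ (h1 ▸ Subgroup.card_le_of_le (le_inf hS (Subgroup.map_subtype_le _)))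
  obtain ⟨n, hn⟩ := (hR.to_le (inf_le_left : R ⊓ Z ≤ R)).exists_card_eq
  rw [hn]
  refine Nat.pow_le_pow_right hr.out.pos ?_
  exact (hr.out.pow_dvd_iff_le_factorization Nat.card_pos.ne').1
    (hn ▸ Subgroup.card_dvd_of_le inf_le_right)

theorem exists_sylow_of_hasSylowCard {r : ℕ} [Fact r.Prime] {R Z : Subgroup H}
    (h : HasSylowCard r (R ⊓ Z) Z) : ∃ S : Sylow r ↥Z, (S : Subgroup ↥Z).map Z.subtype = R ⊓ Z := by
  refine ⟨Sylow.ofCard ((R ⊓ Z).subgroupOf Z) ?_, ?_⟩
  · rw [Nat.card_congr (Subgroup.subgroupOfEquivOfLe inf_le_right).toEquiv]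
    exact h
  · exact Subgroup.map_subgroupOf_eq_of_le inf_le_right

theorem hasSylowCard_centralizer [hp : Fact p.Prime] {r : ℕ} [hr : Fact r.Prime]
    {A R Z : Subgroup H} (hA : IsElementaryAbelian p A)
    (hZ : ¬ p ∣ Nat.card Z) (hAZ : A ≤ Subgroup.normalizer (Z : Set H))
    (hR : IsPGroup r R) (hAR : A ≤ Subgroup.normalizer (R : Set H))
    (h : HasSylowCard r (R ⊓ Z) Z) {a : H} (ha : a ∈ A) :
    HasSylowCard r (R ⊓ (Z ⊓ Subgroup.centralizer {a})) (Z ⊓ Subgroup.centralizer {a}) := by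
  haveI := hA.1
  have hsolv : Group.IsSolvable A := CfsgLib.CoprimeAction.isSolvable_of_isMulCommutative A
  set C := Subgroup.centralizer ({a} : Set H)
  have hAZC : A ≤ Subgroup.normalizer ((Z ⊓ C : Subgroup H) : Set H) :=
    le_normalizer_inf hAZ (le_normalizer_centralizer_singleton hA ha)
  have hcop := elemAb_coprime hA hZ
  obtain ⟨T, hT⟩ := CfsgLib.CoprimeAction.exists_invariant_sylow hAZC
    (hcop.coprime_dvd_right (Subgroup.card_dvd_of_le inf_le_left)) (Or.inl hsolv) r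
  obtain ⟨S', hTS', hS'⟩ := CfsgLib.CoprimeAction.exists_invariant_sylow_ge hAZ hcop
    (Or.inl hsolv) ((Subgroup.map_subtype_le _).trans inf_le_left) (T.isPGroup'.map _) hT
  obtain ⟨S, hS⟩ := exists_sylow_of_hasSylowCard h
  obtain ⟨c, hcA, hcS⟩ := CfsgLib.CoprimeAction.invariant_sylow_conj hAZ hcop (Or.inl hsolv)
    S S' (hS.symm ▸ le_normalizer_inf hAR hAZ) hS'
  have hcC : (c : H) ∈ C :=
    mem_centralizer_singleton.2 (Subgroup.mem_centralizer_iff.1 hcA a ha)
  refine hasSylowCard_inf hR ((⟨c, ⟨c.2, hcC⟩⟩ : ↥(Z ⊓ C))⁻¹ • T) ?_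
  rw [Sylow.coe_subgroup_smul, CfsgLib.CoprimeAction.map_conj_subtype]
  intro x hx
  rw [CfsgLib.CoprimeAction.mem_conj_iff] at hx
  have h1 : ((⟨c, ⟨c.2, hcC⟩⟩ : ↥(Z ⊓ C))⁻¹ : H)⁻¹ * x * ((⟨c, ⟨c.2, hcC⟩⟩ : ↥(Z ⊓ C))⁻¹ : H) ∈
      MulAut.conj (c : H) • (R ⊓ Z) := by
    rw [← hS, ← CfsgLib.CoprimeAction.map_conj_subtype]
    refine (le_of_eq ?_ : (S' : Subgroup ↥Z).map Z.subtype ≤ _) (hTS' hx)
    rw [← hcS]; rfl
  rw [CfsgLib.CoprimeAction.mem_conj_iff] at h1
  have h2 := h1.1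
  simpa [mul_assoc] using h2

/-- If a noncyclic elementary abelian `p`-group `A` acts on a `p'`-group `K` and
`C_K(a) = C_X(a) C_Y(a)` for all `a ≠ 1`, with `X` invariant under `C_K(A)`, then `K = XY`. -/
theorem coprime_factorization [hp : Fact p.Prime] {A K X Y : Subgroup H}
    (hA : IsElementaryAbelian p A) (hA2 : p ^ 2 ≤ Nat.card A) (hK : ¬ p ∣ Nat.card K)
    (hAK : A ≤ Subgroup.normalizer (K : Set H)) (hX : X ≤ K) (hY : Y ≤ K)
    (hAX : A ≤ Subgroup.normalizer (X : Set H)) (hAY : A ≤ Subgroup.normalizer (Y : Set H))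
    (hCX : K ⊓ Subgroup.centralizer (A : Set H) ≤ Subgroup.normalizer (X : Set H))
    (hfac : ∀ a ∈ A, a ≠ 1 → ((K ⊓ Subgroup.centralizer {a} : Subgroup H) : Set H) =
      ((X ⊓ Subgroup.centralizer {a} : Subgroup H) : Set H) *
        ((Y ⊓ Subgroup.centralizer {a} : Subgroup H) : Set H)) :
    (K : Set H) = (X : Set H) * (Y : Set H) := by
  haveI := hA.1
  have hsolv : Group.IsSolvable A := CfsgLib.CoprimeAction.isSolvable_of_isMulCommutative A
  have hcop := elemAb_coprime hA hK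
  have hXY : A ≤ Subgroup.normalizer ((X ⊓ Y : Subgroup H) : Set H) := le_normalizer_inf hAX hAY
  have hXYK : X ⊓ Y ≤ K := inf_le_left.trans hX
  have hkey : ∀ r : ℕ, r.Prime → (Nat.card K * Nat.card ↥(X ⊓ Y)).factorization r =
      (Nat.card X * Nat.card Y).factorization r := by
    intro r hr
    haveI : Fact r.Prime := ⟨hr⟩
    have hcX := hcop.coprime_dvd_right (Subgroup.card_dvd_of_le hX)
    have hcY := hcop.coprime_dvd_right (Subgroup.card_dvd_of_le hY)
    obtain ⟨T, hT⟩ := CfsgLib.CoprimeAction.exists_invariant_sylow hXY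
      (hcop.coprime_dvd_right (Subgroup.card_dvd_of_le hXYK)) (Or.inl hsolv) r
    obtain ⟨SY, hTY, hSY⟩ := CfsgLib.CoprimeAction.exists_invariant_sylow_ge hAY hcY
      (Or.inl hsolv) ((Subgroup.map_subtype_le _).trans inf_le_right) (T.isPGroup'.map _) hT
    obtain ⟨SK, hYK, hSK⟩ := CfsgLib.CoprimeAction.exists_invariant_sylow_ge hAK hcop
      (Or.inl hsolv) ((Subgroup.map_subtype_le _).trans hY) (SY.isPGroup'.map _) hSY
    set R := (SK : Subgroup ↥K).map K.subtype with hRdef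
    have hR : IsPGroup r R := SK.isPGroup'.map _
    have hRK : R ≤ K := Subgroup.map_subtype_le _
    have hcK : HasSylowCard r (R ⊓ K) K := hasSylowCard_inf hR SK le_rfl
    have hcY' : HasSylowCard r (R ⊓ Y) Y := hasSylowCard_inf hR SY hYK
    have hcXY : HasSylowCard r (R ⊓ (X ⊓ Y)) (X ⊓ Y) := hasSylowCard_inf hR T (hTY.trans hYK)
    have hcX' : HasSylowCard r (R ⊓ X) X := by
      obtain ⟨SX, hSX⟩ := CfsgLib.CoprimeAction.exists_invariant_sylow hAX hcX (Or.inl hsolv) r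
      obtain ⟨SK', hXK, hSK'⟩ := CfsgLib.CoprimeAction.exists_invariant_sylow_ge hAK hcop
        (Or.inl hsolv) ((Subgroup.map_subtype_le _).trans hX) (SX.isPGroup'.map _) hSX
      obtain ⟨c, hcA, hcS⟩ := CfsgLib.CoprimeAction.invariant_sylow_conj hAK hcop (Or.inl hsolv)
        SK SK' hSK hSK'
      have h1 := hasSylowCard_inf (SK'.isPGroup'.map K.subtype) SX hXK
      rw [HasSylowCard] at h1 ⊢
      have hcn : (c : H) ∈ Subgroup.normalizer (X : Set H) := hCX ⟨c.2, hcA⟩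
      have he : (SK' : Subgroup ↥K).map K.subtype ⊓ X = MulAut.conj (c : H) • (R ⊓ X) := by
        rw [Subgroup.smul_inf, CfsgLib.CoprimeAction.conj_smul_eq_self.2 hcn, hRdef,
          ← CfsgLib.CoprimeAction.map_conj_subtype, ← hcS]
        rfl
      rwa [he, CfsgLib.CoprimeAction.card_conj_smul] at h1
    have hfacR : ∀ a ∈ A, a ≠ 1 → ∀ x ∈ R, a * x = x * a →
        ∃ u ∈ R ⊓ X, ∃ v ∈ R ⊓ Y, x = u * v := by
      intro a ha ha1
      set C := Subgroup.centralizer ({a} : Set H)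
      have e1 := hasSylowCard_centralizer hA hK hAK hR hSK hcK ha
      have e2 := hasSylowCard_centralizer hA
        (fun h => hK (h.trans (Subgroup.card_dvd_of_le hX))) hAX hR hSK hcX' ha
      have e3 := hasSylowCard_centralizer hA
        (fun h => hK (h.trans (Subgroup.card_dvd_of_le hY))) hAY hR hSK hcY' ha
      have e4 := hasSylowCard_centralizer hA
        (fun h => hK (h.trans (Subgroup.card_dvd_of_le hXYK))) hXY hR hSK hcXY ha
      rw [HasSylowCard] at e1 e2 e3 e4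
      have hprod := CfsgLib.PSolvable.card_mul_mul_card_inf (X ⊓ C) (Y ⊓ C)
      rw [← hfac a ha ha1, show (X ⊓ C) ⊓ (Y ⊓ C) = X ⊓ Y ⊓ C from inf_inf_distrib_right X Y C |>.symm]
        at hprod
      have hpow : Nat.card ↥(R ⊓ (K ⊓ C)) * Nat.card ↥(R ⊓ (X ⊓ Y ⊓ C)) =
          Nat.card ↥(R ⊓ (X ⊓ C)) * Nat.card ↥(R ⊓ (Y ⊓ C)) := by
        rw [e1, e2, e3, e4, ← pow_add, ← pow_add]
        congr 1
        have h := congrArg (fun n => Nat.factorization n r) hprod
        rw [show Nat.card (↑((K ⊓ C : Subgroup H) : Set H)) = Nat.card ↥(K ⊓ C) from rfl] at h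
        rw [Nat.factorization_mul Nat.card_pos.ne' Nat.card_pos.ne',
          Nat.factorization_mul Nat.card_pos.ne' Nat.card_pos.ne', Finsupp.add_apply,
          Finsupp.add_apply] at h
        exact h
      have hprodR := CfsgLib.PSolvable.card_mul_mul_card_inf (R ⊓ (X ⊓ C)) (R ⊓ (Y ⊓ C))
      rw [show (R ⊓ (X ⊓ C)) ⊓ (R ⊓ (Y ⊓ C)) = R ⊓ (X ⊓ Y ⊓ C) by
        rw [← inf_inf_distrib_left, ← inf_inf_distrib_right X Y C], ← hpow] at hprodR
      have hcard := Nat.eq_of_mul_eq_mul_right Nat.card_pos hprodR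
      have hsub : ((R ⊓ (X ⊓ C) : Subgroup H) : Set H) * ((R ⊓ (Y ⊓ C) : Subgroup H) : Set H) ⊆
          ((R ⊓ (K ⊓ C) : Subgroup H) : Set H) := by
        rintro _ ⟨u, hu, v, hv, rfl⟩
        exact ⟨mul_mem hu.1 hv.1, mul_mem (hX hu.2.1) (hY hv.2.1), mul_mem hu.2.2 hv.2.2⟩
      have heq := Set.eq_of_subset_of_ncard_le hsub (by
        rw [← Nat.card_coe_set_eq, ← Nat.card_coe_set_eq]
        exact hcard.ge)
      intro x hx hxa
      have hxm : x ∈ ((R ⊓ (K ⊓ C) : Subgroup H) : Set H) :=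
        ⟨hx, hRK hx, mem_centralizer_singleton.2 hxa⟩
      rw [← heq] at hxm
      obtain ⟨u, hu, v, hv, rfl⟩ := hxm
      exact ⟨u, ⟨hu.1, hu.2.1⟩, v, ⟨hv.1, hv.2.1⟩, rfl⟩
    haveI : Group.IsNilpotent R := hR.isNilpotent
    have hfull := nilpotent_factorization hA hA2
      (fun h => hK (h.trans (Subgroup.card_dvd_of_le hRK))) hSK inf_le_left inf_le_left hfacR
    have hset : ((R ⊓ X : Subgroup H) : Set H) * ((R ⊓ Y : Subgroup H) : Set H) = (R : Set H) := by
      refine Set.Subset.antisymm ?_ fun x hx => ?_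
      · rintro _ ⟨u, hu, v, hv, rfl⟩
        exact mul_mem hu.1 hv.1
      · obtain ⟨u, hu, v, hv, rfl⟩ := hfull x hx
        exact Set.mul_mem_mul hu hv
    have hprod := CfsgLib.PSolvable.card_mul_mul_card_inf (R ⊓ X) (R ⊓ Y)
    rw [hset, show (R ⊓ X) ⊓ (R ⊓ Y) = R ⊓ (X ⊓ Y) by rw [← inf_inf_distrib_left],
      show Nat.card ↥(R : Set H) = Nat.card ↥(R ⊓ K) by rw [inf_eq_left.2 hRK]; rfl] at hprod
    rw [HasSylowCard] at hcK hcX' hcY' hcXY
    rw [hcK, hcX', hcY', hcXY, ← pow_add, ← pow_add] at hprod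
    rw [Nat.factorization_mul Nat.card_pos.ne' Nat.card_pos.ne',
      Nat.factorization_mul Nat.card_pos.ne' Nat.card_pos.ne']
    exact Nat.pow_right_injective hr.two_le hprod
  have heq : Nat.card K * Nat.card ↥(X ⊓ Y) = Nat.card X * Nat.card Y := by
    refine Nat.eq_of_factorization_eq (Nat.mul_pos Nat.card_pos Nat.card_pos).ne'
      (Nat.mul_pos Nat.card_pos Nat.card_pos).ne' fun r => ?_
    by_cases hr : r.Prime
    · exact hkey r hr
    · rw [Nat.factorization_eq_zero_of_not_prime _ hr, Nat.factorization_eq_zero_of_not_prime _ hr]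
  rw [← CfsgLib.PSolvable.card_mul_mul_card_inf X Y] at heq
  have hsub : (X : Set H) * (Y : Set H) ⊆ K := mem_mul_of_forall hX hY subset_rfl
  refine (Set.eq_of_subset_of_ncard_le hsub ?_).symm
  rw [← Nat.card_coe_set_eq, ← Nat.card_coe_set_eq]
  exact (Nat.eq_of_mul_eq_mul_right Nat.card_pos heq).le

/-- A subgroup of order prime to `q` whose commutators with the `C_K(B)`, `|A : B| = p`, have order
prime to `q` lies in `O_{q'}(K)` for solvable `K`. -/
theorem le_pPrimeCore_of_hyperplane_commutators [hp : Fact p.Prime] {q : ℕ} [hq : Fact q.Prime]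
    {A K U : Subgroup H} (hA : IsElementaryAbelian p A) (hA2 : p ^ 2 ≤ Nat.card A)
    (hK : ¬ p ∣ Nat.card K) [Group.IsSolvable K] (hAK : A ≤ Subgroup.normalizer (K : Set H))
    (hU : U ≤ K) (hUq : ¬ q ∣ Nat.card U)
    (hcomm : ∀ B : Subgroup H, B ≤ A → B.relIndex A = p →
      ¬ q ∣ Nat.card ↥⁅U, K ⊓ Subgroup.centralizer (B : Set H)⁆) :
    U ≤ (pPrimeCore q ↥K).map K.subtype := by
  have hA1 : A ≠ ⊥ := by
    intro h
    rw [h, Subgroup.card_bot] at hA2
    have := Nat.pow_le_pow_left hp.out.two_le 2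
    norm_num at this
    omega
  set π := QuotientGroup.mk' (pPrimeCore q ↥K)
  set Q := pCore q (↥K ⧸ pPrimeCore q ↥K)
  set U' := U.subgroupOf K
  haveI : (pPrimePCore q ↥K).Characteristic :=
    Subgroup.characteristic_iff_map_eq.2 fun e => CfsgLib.PSolvable.map_pPrimePCore_equiv e
  set V := (pPrimePCore q ↥K).map K.subtype
  set T := (Subgroup.centralizer ((U'.map π : Subgroup _) : Set (↥K ⧸ pPrimeCore q ↥K))).comap π
  have hUc : (Nat.card (U'.map π)).Coprime q := by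
    refine Nat.Coprime.coprime_dvd_left (U'.card_map_dvd π) ?_
    rw [Nat.card_congr (Subgroup.subgroupOfEquivOfLe hU).toEquiv]
    exact ((hq.out.coprime_iff_not_dvd).2 hUq).symm
  have hV : V ≤ T.map K.subtype := by
    refine le_of_hyperplane_centralizers hA hA1
      (hAK.trans (CfsgLib.Cores.normalizer_le_normalizer_map_subtype K (pPrimePCore q ↥K)))
      (fun h => hK (h.trans (Subgroup.card_dvd_of_le (Subgroup.map_subtype_le _)))) fun B hB hBi => ?_
    rintro _ ⟨⟨c, hc, rfl⟩, hcB⟩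
    refine ⟨c, ?_, rfl⟩
    show π c ∈ Subgroup.centralizer _
    rw [Subgroup.mem_centralizer_iff]
    rintro _ ⟨u, hu, rfl⟩
    rw [← commutatorElement_eq_one_iff_mul_comm, ← map_commutatorElement]
    have hmem : (⁅u, c⁆ : ↥K) ∈ (⁅U, K ⊓ Subgroup.centralizer (B : Set H)⁆).subgroupOf K :=
      Subgroup.mem_subgroupOf.2 (Subgroup.commutator_mem_commutator (show (u : H) ∈ U from hu)
        (Subgroup.mem_inf.2 ⟨c.2, hcB⟩))
    have h1 : orderOf (π ⁅u, c⁆) ∣ Nat.card ↥⁅U, K ⊓ Subgroup.centralizer (B : Set H)⁆ :=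
      (orderOf_map_dvd π _).trans (((Subgroup.orderOf_coe (⁅u, c⁆ : ↥K)).symm.dvd).trans
        (Subgroup.orderOf_dvd_natCard _ (Subgroup.mem_subgroupOf.1 hmem)))
    have h2 : π ⁅u, c⁆ ∈ Q := by
      rw [map_commutatorElement]
      exact Subgroup.commutator_le_right ⊤ Q
        (Subgroup.commutator_mem_commutator (Subgroup.mem_top _) (show π c ∈ Q from hc))
    obtain ⟨n, hn⟩ := (CfsgLib.Cores.isPGroup_pCore q (↥K ⧸ pPrimeCore q ↥K)).exists_card_eq
    have h3 : orderOf (π ⁅u, c⁆) ∣ Nat.gcd (Nat.card ↥⁅U, K ⊓ Subgroup.centralizer (B : Set H)⁆)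
        (q ^ n) := Nat.dvd_gcd h1 (hn ▸ Subgroup.orderOf_dvd_natCard Q h2)
    rwa [Nat.Coprime.gcd_eq_one ((((hq.out.coprime_iff_not_dvd).2 (hcomm B hB hBi)).symm).pow_right n),
      Nat.dvd_one, orderOf_eq_one_iff] at h3
  have hle : U'.map π ≤ Q := by
    refine le_trans (Subgroup.le_centralizer_iff.1 fun x hx => ?_)
      centralizer_pCore_le_of_isSolvable
    obtain ⟨k, rfl⟩ := QuotientGroup.mk'_surjective _ x
    obtain ⟨t, ht, he⟩ := hV (Subgroup.mem_map_of_mem K.subtype (show k ∈ pPrimePCore q ↥K from hx))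
    rw [← K.subtype_injective he]
    exact ht
  obtain ⟨n, hn⟩ := (CfsgLib.Cores.isPGroup_pCore q (↥K ⧸ pPrimeCore q ↥K)).exists_card_eq
  have hb := Subgroup.inf_eq_bot_of_coprime (H := U'.map π) (K := Q) (hn ▸ hUc.pow_right n)
  rw [inf_eq_left.2 hle, Subgroup.map_eq_bot_iff, QuotientGroup.ker_mk'] at hb
  rw [← Subgroup.map_subgroupOf_eq_of_le hU]
  exact Subgroup.map_mono hb

end CfsgLib.Balance
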