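import Cfsg.Agent.Lib.Balance.ConnectedFunctor
import Cfsg.Agent.Lib.Signalizer.Generation

/-!
The signalizer functor of a `k`-balanced group, given completeness of solvable signalizer functors.
-/

set_option autoImplicit false
set_option linter.style.haveILetI false

namespace CfsgLib.Balance

open Cfsg

variable {G : Type*} [Group G] [Finite G] {p : ℕ} [hp : Fact p.Prime]

theorem exists_hyperplane_ge {A B : Subgroup G} (hA : IsElementaryAbelian p A) (hB : B ≤ A)
    (hne : B ≠ A) : ∃ F : Subgroup G, F ≤ A ∧ p * Nat.card F = Nat.card A ∧ B ≤ F := by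
  obtain ⟨F, ⟨hFA, hBF, hF⟩, hmax⟩ := Set.Finite.exists_maximal
    (s := {F : Subgroup G | F ≤ A ∧ B ≤ F ∧ F ≠ A}) (Set.toFinite _) ⟨B, hB, le_rfl, hne⟩
  obtain ⟨y, hyA, hyF⟩ := SetLike.exists_of_lt (lt_of_le_of_ne hFA hF)
  refine ⟨F, hFA, ?_, hBF⟩
  have htop : F ⊔ Subgroup.zpowers y = A := by
    by_contra h
    exact hyF (hmax (y := F ⊔ Subgroup.zpowers y)
      ⟨sup_le hFA (Subgroup.zpowers_le.2 hyA), hBF.trans le_sup_left, h⟩ le_sup_left
      (Subgroup.mem_sup_right (Subgroup.mem_zpowers y)))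
  rw [mul_comm, ← card_sup_zpowers hA hFA hyA hyF, htop]

/-- For a proper `B` and any `E` some hyperplane through `B` is centralized by whatever
centralizes both. -/
theorem exists_hyperplane_centralized {A B E : Subgroup G} (hA : IsElementaryAbelian p A)
    (hB : B ≤ A) (hne : B ≠ A) (hE : E ≤ A) (hEc : p * Nat.card E = Nat.card A) :
    ∃ F : Subgroup G, F ≤ A ∧ p * Nat.card F = Nat.card A ∧ B ≤ F ∧
      Subgroup.centralizer (E : Set G) ⊓ Subgroup.centralizer (B : Set G) ≤
        Subgroup.centralizer (F : Set G) := by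
  have key : Subgroup.centralizer (E : Set G) ⊓ Subgroup.centralizer (B : Set G) ≤
      Subgroup.centralizer ((B ⊔ E : Subgroup G) : Set G) :=
    Subgroup.le_centralizer_iff.1 (sup_le (Subgroup.le_centralizer_iff.1 inf_le_right)
      (Subgroup.le_centralizer_iff.1 inf_le_left))
  by_cases h : B ⊔ E = A
  · obtain ⟨F, hFA, hF, hBF⟩ := exists_hyperplane_ge hA hB hne
    exact ⟨F, hFA, hF, hBF, key.trans (Subgroup.centralizer_le (h ▸ hFA))⟩
  · obtain ⟨F, hFA, hF, hBF⟩ := exists_hyperplane_ge hA (sup_le hB hE) h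
    refine ⟨F, hFA, hF, le_sup_left.trans hBF, key.trans (Subgroup.centralizer_le ?_)⟩
    have hEF : E = F := Subgroup.eq_of_le_of_card_ge (le_sup_right.trans hBF)
      (Nat.le_of_mul_le_mul_left (hF.trans hEc.symm).le hp.out.pos)
    exact hEF ▸ (le_sup_right : E ≤ B ⊔ E)

/-- A subgroup of order `p ^ k` of `B`. -/
theorem exists_le_card_pow {k : ℕ} {B : Subgroup G} (hB : IsPGroup p B)
    (h : p ^ k ≤ Nat.card B) : ∃ D : Subgroup G, D ≤ B ∧ Nat.card D = p ^ k := by
  obtain ⟨m, hm⟩ := IsPGroup.iff_card.1 hB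
  have hkm : k ≤ m := (Nat.pow_le_pow_iff_right hp.out.one_lt).1 (hm ▸ h)
  obtain ⟨D, hD⟩ := Sylow.exists_subgroup_card_pow_prime p (hm ▸ pow_dvd_pow p hkm)
  exact ⟨D.map B.subtype, Subgroup.map_subtype_le _,
    (Subgroup.card_map_of_injective B.subtype_injective).trans hD⟩

/-- Below a subgroup of small order there is room for a complementary subgroup of order `p ^ n`. -/
theorem exists_disjoint_card_pow {A B : Subgroup G} (hA : IsElementaryAbelian p A) (hB : B ≤ A)
    (n : ℕ) (h : Nat.card B * p ^ n ≤ Nat.card A) :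
    ∃ A' : Subgroup G, A' ≤ A ∧ Nat.card A' = p ^ n ∧ B ⊓ A' = ⊥ := by
  induction n with
  | zero => exact ⟨⊥, bot_le, by simp, inf_bot_eq _⟩
  | succ n ih =>
    obtain ⟨A', hA'A, hcard, hdis⟩ := ih
      ((Nat.mul_le_mul_left _ (Nat.pow_le_pow_right hp.out.pos n.le_succ)).trans h)
    have hn : B ≤ Subgroup.normalizer (A' : Set G) :=
      (hB.trans (le_centralizer_of_le_elemAb hA hA'A)).trans (Subgroup.centralizer_le_normalizer _)
    have hlt : Nat.card ↥(B ⊔ A') < Nat.card A := by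
      rw [CfsgLib.BGAppendix.card_sup_eq_mul B A' hn hdis, hcard]
      refine lt_of_lt_of_le ?_ h
      exact Nat.mul_lt_mul_of_pos_left (Nat.pow_lt_pow_right hp.out.one_lt n.lt_succ_self)
        Nat.card_pos
    obtain ⟨y, hyA, hyB⟩ := SetLike.exists_of_lt
      (lt_of_le_of_ne (sup_le hB hA'A) fun h' => hlt.ne (by rw [h']))
    refine ⟨A' ⊔ Subgroup.zpowers y, sup_le hA'A (Subgroup.zpowers_le.2 hyA), ?_, ?_⟩
    · rw [card_sup_zpowers hA hA'A hyA fun h' => hyB (Subgroup.mem_sup_right h'), hcard, pow_succ]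
    · refine (Subgroup.eq_bot_iff_forall _).2 fun w hw => ?_
      have hw' : w ∈ ((A' ⊔ Subgroup.zpowers y : Subgroup G) : Set G) := hw.2
      rw [Subgroup.coe_mul_of_left_le_normalizer_right _ _
        (((hA'A.trans (le_centralizer_of_le_elemAb hA (Subgroup.zpowers_le.2 hyA)))).trans
          (Subgroup.centralizer_le_normalizer _))] at hw'
      obtain ⟨u, hu, v, hv, rfl⟩ := hw'
      rcases eq_or_ne v 1 with rfl | hv1
      · have hu1 : u ∈ B ⊓ A' := ⟨by simpa using hw.1, hu⟩
        rw [hdis, Subgroup.mem_bot] at hu1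
        simp [hu1]
      · exfalso
        have hvB : v ∈ B ⊔ A' := by
          have := mul_mem (inv_mem (Subgroup.mem_sup_right (S := B) hu))
            (Subgroup.mem_sup_left (T := A') hw.1)
          simpa using this
        have hvy : Subgroup.zpowers v = Subgroup.zpowers y :=
          Subgroup.eq_of_le_of_card_ge (Subgroup.zpowers_le.2 hv) (by
            rw [Nat.card_zpowers, Nat.card_zpowers,
              elemAb_orderOf hA ((Subgroup.zpowers_le.2 hyA) hv) hv1,
              elemAb_orderOf hA hyA fun h' => hyB (h' ▸ one_mem _)])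
        exact hyB ((hvy.symm.le.trans (Subgroup.zpowers_le.2 hvB)) (Subgroup.mem_zpowers y))

/-- `Δ(E) ∩ C(E)`. -/
def deltaFix (p : ℕ) (E : Subgroup G) : Subgroup G :=
  signalizerDelta p E ⊓ Subgroup.centralizer (E : Set G)

/-- The subgroup generated by `Δ(F) ∩ C(F)` over the hyperplanes `F` of `A` containing `B`. -/
def deltaSpan (p : ℕ) (A B : Subgroup G) : Subgroup G :=
  ⨆ F : {F : Subgroup G // F ≤ A ∧ p * Nat.card F = Nat.card A ∧ B ≤ F}, deltaFix p (F : Subgroup G)

omit [Finite G] hp in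
theorem deltaFix_le_deltaSpan {A B F : Subgroup G} (hFA : F ≤ A)
    (hF : p * Nat.card F = Nat.card A) (hBF : B ≤ F) : deltaFix p F ≤ deltaSpan p A B :=
  le_iSup (fun F : {F : Subgroup G // F ≤ A ∧ p * Nat.card F = Nat.card A ∧ B ≤ F} =>
    deltaFix p (F : Subgroup G)) ⟨F, hFA, hF, hBF⟩

omit [Finite G] hp in
theorem deltaSpan_le_centralizer (A B : Subgroup G) :
    deltaSpan p A B ≤ Subgroup.centralizer (B : Set G) :=
  iSup_le fun F => inf_le_right.trans (Subgroup.centralizer_le F.2.2.2)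

omit [Finite G] hp in
theorem deltaSpan_le_core {A B : Subgroup G} {c : G} (hc : c ∈ B) (hc1 : c ≠ 1) :
    deltaSpan p A B ≤ centralizerPPrimeCore p c :=
  iSup_le fun F => inf_le_left.trans fun _ hx => mem_signalizerDelta.1 hx c (F.2.2.2 hc) hc1

theorem normalizer_signalizerDelta {A D : Subgroup G} (hA : IsElementaryAbelian p A) (hD : D ≤ A)
    {g x : G} (hg : g ∈ A) (hx : x ∈ signalizerDelta p D) : g * x * g⁻¹ ∈ signalizerDelta p D :=
  mem_signalizerDelta.2 fun c hc hc1 => (Subgroup.mem_normalizer_iff.1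
    (centralizer_le_normalizer_centralizerPPrimeCore p c
      (le_centralizer_singleton hA (hD hc) hg)) x).1 (mem_signalizerDelta.1 hx c hc hc1)

theorem conj_mem_centralizer_of_elemAb {A D : Subgroup G} (hA : IsElementaryAbelian p A)
    (hD : D ≤ A) {g x : G} (hg : g ∈ A) (hx : x ∈ Subgroup.centralizer (D : Set G)) :
    g * x * g⁻¹ ∈ Subgroup.centralizer (D : Set G) := by
  have hgC := le_centralizer_of_le_elemAb hA hD hg
  exact mul_mem (mul_mem hgC hx) (inv_mem hgC)

theorem le_normalizer_deltaSpan {A : Subgroup G} (hA : IsElementaryAbelian p A) (B : Subgroup G) :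
    A ≤ Subgroup.normalizer (deltaSpan p A B : Set G) := by
  intro g hg
  refine CfsgLib.CoprimeAction.mem_normalizer_of_conj_mem fun x hx => ?_
  refine Subgroup.iSup_induction (C := fun x => g * x * g⁻¹ ∈ deltaSpan p A B) _ hx
    (fun F y hy => deltaFix_le_deltaSpan F.2.1 F.2.2.1 F.2.2.2
      ⟨normalizer_signalizerDelta hA F.2.1 hg hy.1,
        conj_mem_centralizer_of_elemAb hA F.2.1 hg hy.2⟩)
    (by simp) (fun y z hy hz => ?_)
  have := mul_mem hy hz
  rwa [show g * y * g⁻¹ * (g * z * g⁻¹) = g * (y * z) * g⁻¹ by group] at this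

/-- Balance pushes `Δ(D)` into `Δ(E)` on the centralizer of `E`. -/
theorem delta_inf_centralizer_le {k : ℕ} (hbal : IsKBalanced p k G) {A D E : Subgroup G}
    (hA : IsElementaryAbelian p A) (hD : D ≤ A) (hcard : Nat.card D = p ^ k) (hE : E ≤ A) :
    signalizerDelta p D ⊓ Subgroup.centralizer (E : Set G) ≤ deltaFix p E := by
  refine fun x hx => ⟨mem_signalizerDelta.2 fun c hc hc1 => ?_, hx.2⟩
  exact hbal D (elemAb_of_le hA hD) hcard c (elemAb_orderOf hA (hE hc) hc1)
    (fun a ha => elemAb_comm hA (hD ha) (hE hc))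
    ⟨hx.1, mem_centralizer_singleton.2 (Subgroup.mem_centralizer_iff.1 hx.2 c hc)⟩

omit [Finite G] hp in
theorem deltaFix_le_of_le {D E : Subgroup G} (h : D ≤ E) : deltaFix p E ≤ signalizerDelta p D :=
  inf_le_left.trans fun _ hx => mem_signalizerDelta.2 fun c hc hc1 =>
    mem_signalizerDelta.1 hx c (h hc) hc1

/-- For every `B ≤ A`, the span meets the centralizer of a hyperplane through `B` in its part. -/
theorem deltaSpan_inf_le {k : ℕ} (hk : 1 ≤ k) (hbal : IsKBalanced p k G) {A : Subgroup G}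
    (hA : IsElementaryAbelian p A) (hAk : p ^ (k + 2) ≤ Nat.card A)
    (hsolv : ∀ a ∈ A, a ≠ 1 → Group.IsSolvable ↥(centralizerPPrimeCore p a))
    (hSFT : SolvableFunctorsComplete p G) :
    ∀ B : Subgroup G, B ≤ A → ∀ E : Subgroup G, E ≤ A → p * Nat.card E = Nat.card A → B ≤ E →
      deltaSpan p A B ⊓ Subgroup.centralizer (E : Set G) ≤ deltaFix p E := by
  intro B
  induction B using WellFoundedGT.induction with
  | ind B ih =>
    intro hB E hEA hE hBE
    obtain ⟨j, hj⟩ := IsPGroup.iff_card.1 (elemAb_isPGroup (elemAb_of_le hA hB))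
    rcases Nat.lt_or_ge j k with hjk | hjk
    swap
    · -- the span lies in `Δ(D)`
      obtain ⟨D, hDB, hD⟩ := exists_le_card_pow (k := k) (elemAb_isPGroup (elemAb_of_le hA hB))
        (hj ▸ Nat.pow_le_pow_right hp.out.pos hjk)
      refine le_trans (inf_le_inf_right _ (iSup_le fun F => ?_))
        (delta_inf_centralizer_le hbal hA (hDB.trans hB) hD hEA)
      exact deltaFix_le_of_le (hDB.trans F.2.2.2)
    obtain ⟨A', hA'A, hA'c, hdis⟩ := exists_disjoint_card_pow hA hB 3 (by
      rw [hj, ← pow_add]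
      exact (Nat.pow_le_pow_right hp.out.pos (by omega)).trans hAk)
    have hnotmem : ∀ x ∈ A', x ≠ 1 → x ∉ B := fun x hx hx1 hxB => hx1 (by
      have : x ∈ B ⊓ A' := ⟨hxB, hx⟩
      rwa [hdis, Subgroup.mem_bot] at this)
    have hlt : ∀ x ∈ A', x ≠ 1 → B < B ⊔ Subgroup.zpowers x := fun x hx hx1 =>
      lt_of_le_of_ne le_sup_left fun h =>
        hnotmem x hx hx1 (h ▸ Subgroup.mem_sup_right (Subgroup.mem_zpowers x))
    have hsub : ∀ x ∈ A', B ⊔ Subgroup.zpowers x ≤ A := fun x hx =>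
      sup_le hB (Subgroup.zpowers_le.2 (hA'A hx))
    set ψ : G → Subgroup G := fun x => deltaSpan p A (B ⊔ Subgroup.zpowers x) with hψ
    have hψcore : ∀ x ∈ A', x ≠ 1 → ψ x ≤ centralizerPPrimeCore p x := fun x _ hx1 =>
      deltaSpan_le_core (Subgroup.mem_sup_right (Subgroup.mem_zpowers x)) hx1
    have hψp : ∀ x ∈ A', x ≠ 1 → ¬ p ∣ Nat.card (ψ x) := fun x hx hx1 h =>
      not_dvd_card_centralizerPPrimeCore x (h.trans (Subgroup.card_dvd_of_le (hψcore x hx hx1)))
    have hfun : IsSolvableSignalizerFunctor p A' ψ := by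
      refine ⟨⟨fun x hx hx1 => (hψcore x hx hx1).trans (centralizerPPrimeCore_le_centralizer p x),
        hψp, fun x _ _ g hg y hy =>
          (Subgroup.mem_normalizer_iff.1 (le_normalizer_deltaSpan hA _ (hA'A hg)) y).1 hy,
        fun x hx hx1 y hy hy1 => ?_⟩, fun x hx hx1 => ?_⟩
      · refine CfsgLib.Signalizer.le_of_hyperplanes (A := A) hA
          ((Nat.pow_le_pow_right hp.out.pos (by omega)).trans hAk) ?_
          (fun h => hψp x hx hx1 (h.trans (Subgroup.card_dvd_of_le inf_le_left))) fun F hFA hF => ?_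
        · intro g hg
          refine CfsgLib.CoprimeAction.mem_normalizer_of_conj_mem fun w hw => ⟨?_, ?_⟩
          · exact (Subgroup.mem_normalizer_iff.1 (le_normalizer_deltaSpan hA _ hg) w).1 hw.1
          · have hgC := le_centralizer_singleton hA (hA'A hy) hg
            exact Subgroup.mul_mem _ (Subgroup.mul_mem _ hgC hw.2) (Subgroup.inv_mem _ hgC)
        set B' := B ⊔ Subgroup.zpowers x ⊔ Subgroup.zpowers y
        have hB'A : B' ≤ A := sup_le (hsub x hx) (Subgroup.zpowers_le.2 (hA'A hy))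
        have hne : B' ≠ A := by
          intro h
          have h1 : Nat.card ↥(B ⊔ Subgroup.zpowers x) = p ^ (j + 1) := by
            rw [card_sup_zpowers hA hB (hA'A hx) (hnotmem x hx hx1), hj, pow_succ]
          have h2 : Nat.card B' ≤ p ^ (j + 2) := by
            rcases Classical.em (y ∈ B ⊔ Subgroup.zpowers x) with hyin | hyin
            · rw [show B' = B ⊔ Subgroup.zpowers x from
                sup_eq_left.2 (Subgroup.zpowers_le.2 hyin), h1]
              exact Nat.pow_le_pow_right hp.out.pos (by omega)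
            · exact le_of_eq (by rw [card_sup_zpowers hA (hsub x hx) (hA'A hy) hyin, h1, ← pow_succ])
          rw [h] at h2
          have := (Nat.pow_le_pow_iff_right hp.out.one_lt).1 (hAk.trans h2)
          omega
        obtain ⟨F', hF'A, hF', hBF', hC⟩ := exists_hyperplane_centralized hA hB'A hne hFA hF
        intro w hw
        have hwB' : w ∈ Subgroup.centralizer (B' : Set G) := by
          refine Subgroup.le_centralizer_iff.1 (sup_le ?_ ?_) (Subgroup.mem_zpowers w)
          · exact Subgroup.le_centralizer_iff.1 (Subgroup.zpowers_le.2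
              (deltaSpan_le_centralizer A _ hw.1.1))
          · rw [Subgroup.zpowers_le]
            exact Subgroup.mem_centralizer_iff.2 fun v hv => by
              obtain ⟨i, rfl⟩ := Subgroup.mem_zpowers_iff.1 hv
              exact ((show Commute w y from
                (Subgroup.mem_centralizer_iff.1 hw.1.2 y rfl).symm).zpow_left i).eq
        have hxB' : B ⊔ Subgroup.zpowers x ≤ F' := le_sup_left.trans hBF'
        refine deltaFix_le_deltaSpan hF'A hF'
          (sup_le (le_sup_left.trans hxB') (le_sup_right.trans hBF'))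
          (ih _ (hlt x hx hx1) (hsub x hx) F' hF'A hF' hxB' ⟨hw.1.1, hC ⟨hw.2, hwB'⟩⟩)
      · haveI := hsolv x (hA'A hx) hx1
        exact CfsgLib.CoprimeAction.isSolvable_of_le (hψcore x hx hx1)
    obtain ⟨-, X, -, -, hX⟩ := hSFT A' ψ (elemAb_of_le hA hA'A) (hA'c ▸ le_rfl) hfun
    have hmeet : ∀ F : Subgroup G, F ≤ A → p * Nat.card F = Nat.card A →
        ∃ x ∈ A', x ≠ 1 ∧ x ∈ F := by
      intro F hFA hF
      by_contra hc
      push Not at hc
      have hd : F ⊓ A' = ⊥ := (Subgroup.eq_bot_iff_forall _).2 fun w hw =>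
        by_contra fun h1 => hc w hw.2 h1 hw.1
      have h1 : Nat.card ↥(F ⊔ A') ≤ Nat.card A := Subgroup.card_le_of_le (sup_le hFA hA'A)
      rw [CfsgLib.BGAppendix.card_sup_eq_mul F A'
        ((hFA.trans (le_centralizer_of_le_elemAb hA hA'A)).trans
          (Subgroup.centralizer_le_normalizer _)) hd, ← hF, hA'c, mul_comm p] at h1
      have h2 : p ^ 3 ≤ p ^ 1 := by simpa using Nat.le_of_mul_le_mul_left h1 Nat.card_pos
      exact absurd ((Nat.pow_le_pow_iff_right hp.out.one_lt).1 h2) (by omega)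
    have hspan : deltaSpan p A B ≤ X := iSup_le fun F => by
      obtain ⟨x, hx, hx1, hxF⟩ := hmeet F F.2.1 F.2.2.1
      refine le_trans ?_ ((hX x hx hx1).ge.trans inf_le_left)
      exact deltaFix_le_deltaSpan F.2.1 F.2.2.1 (sup_le F.2.2.2 (Subgroup.zpowers_le.2 hxF))
    obtain ⟨x, hx, hx1, hxE⟩ := hmeet E hEA hE
    intro w hw
    refine ih _ (hlt x hx hx1) (hsub x hx) E hEA hE (sup_le hBE (Subgroup.zpowers_le.2 hxE))
      ⟨?_, hw.2⟩
    show w ∈ ψ x
    rw [← hX x hx hx1]
    exact ⟨hspan hw.1, mem_centralizer_singleton.2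
      (Subgroup.mem_centralizer_iff.1 hw.2 x hxE)⟩

/-- The signalizer functor of a `k`-balanced group. -/
theorem isSignalizerFunctor_of_kBalanced {k : ℕ} (hk : 1 ≤ k) (hbal : IsKBalanced p k G)
    {A : Subgroup G} (hA : IsElementaryAbelian p A) (hAk : p ^ (k + 2) ≤ Nat.card A)
    (hsolv : ∀ a ∈ A, a ≠ 1 → Group.IsSolvable ↥(centralizerPPrimeCore p a))
    (hSFT : SolvableFunctorsComplete p G) :
    IsSignalizerFunctor p A (fun a => ⨆ D : {D : Subgroup G // D ≤ A ∧ Nat.card ↥D = p ^ k},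
      signalizerDelta p (D : Subgroup G) ⊓ Subgroup.centralizer {a}) := by
  set θ : G → Subgroup G := fun a => ⨆ D : {D : Subgroup G // D ≤ A ∧ Nat.card ↥D = p ^ k},
    signalizerDelta p (D : Subgroup G) ⊓ Subgroup.centralizer {a} with hθ
  have hle : ∀ a ∈ A, a ≠ 1 → θ a ≤ centralizerPPrimeCore p a := fun a ha ha1 => iSup_le fun D =>
    hbal _ (elemAb_of_le hA D.2.1) D.2.2 a (elemAb_orderOf hA ha ha1) fun d hd =>
      elemAb_comm hA (D.2.1 hd) ha
  have hp' : ∀ a ∈ A, a ≠ 1 → ¬ p ∣ Nat.card (θ a) := fun a ha ha1 h =>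
    not_dvd_card_centralizerPPrimeCore a (h.trans (Subgroup.card_dvd_of_le (hle a ha ha1)))
  have hinv : ∀ a ∈ A, a ≠ 1 → ∀ g ∈ A, ∀ x ∈ θ a, g * x * g⁻¹ ∈ θ a := by
    intro a ha _ g hg x hx
    refine Subgroup.iSup_induction (C := fun x => g * x * g⁻¹ ∈ θ a) _ hx
      (fun D y hy => Subgroup.mem_iSup_of_mem D ⟨normalizer_signalizerDelta hA D.2.1 hg hy.1,
        ?_⟩) (by simp) (fun y z hy hz => ?_)
    · have hgC := le_centralizer_singleton hA ha hg
      exact Subgroup.mul_mem _ (Subgroup.mul_mem _ hgC hy.2) (Subgroup.inv_mem _ hgC)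
    · have := mul_mem hy hz
      rwa [show g * y * g⁻¹ * (g * z * g⁻¹) = g * (y * z) * g⁻¹ by group] at this
  have hA2 : p ^ 2 ≤ Nat.card A := (Nat.pow_le_pow_right hp.out.pos (by omega)).trans hAk
  have hsingle : ∀ a ∈ A, ∀ w ∈ Subgroup.centralizer ({a} : Set G),
      w ∈ Subgroup.centralizer ((Subgroup.zpowers a : Subgroup G) : Set G) := fun a _ w hw =>
    Subgroup.mem_centralizer_iff.2 fun v hv => by
      obtain ⟨i, rfl⟩ := Subgroup.mem_zpowers_iff.1 hv
      exact (((show Commute w a from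
        (Subgroup.mem_centralizer_iff.1 hw a rfl).symm).zpow_right i).eq).symm
  have hne : ∀ a ∈ A, a ≠ 1 → Subgroup.zpowers a ≠ A := fun a ha ha1 h => by
    have h' : Nat.card (Subgroup.zpowers a) = p := by
      rw [Nat.card_zpowers, elemAb_orderOf hA ha ha1]
    rw [h] at h'
    have h2 : p ^ 2 ≤ p ^ 1 := by rw [pow_one]; exact h' ▸ hA2
    exact absurd ((Nat.pow_le_pow_iff_right hp.out.one_lt).1 h2) (by omega)
  have hspan : ∀ a ∈ A, a ≠ 1 → θ a ≤ deltaSpan p A (Subgroup.zpowers a) := by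
    intro a ha ha1
    refine iSup_le fun D => ?_
    refine CfsgLib.Signalizer.le_of_hyperplanes (A := A) hA hA2 ?_
      (fun h => hp' a ha ha1 (h.trans (Subgroup.card_dvd_of_le (le_iSup
        (fun D : {D : Subgroup G // D ≤ A ∧ Nat.card ↥D = p ^ k} =>
          signalizerDelta p (D : Subgroup G) ⊓ Subgroup.centralizer {a}) D)))) fun F hFA hF => ?_
    · intro g hg
      refine CfsgLib.CoprimeAction.mem_normalizer_of_conj_mem fun w hw =>
        ⟨normalizer_signalizerDelta hA D.2.1 hg hw.1, ?_⟩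
      have hgC := le_centralizer_singleton hA ha hg
      exact Subgroup.mul_mem _ (Subgroup.mul_mem _ hgC hw.2) (Subgroup.inv_mem _ hgC)
    obtain ⟨F', hF'A, hF', haF', hC⟩ :=
      exists_hyperplane_centralized hA (Subgroup.zpowers_le.2 ha) (hne a ha ha1) hFA hF
    exact fun w hw => deltaFix_le_deltaSpan hF'A hF' haF' (delta_inf_centralizer_le hbal hA D.2.1
      D.2.2 hF'A ⟨hw.1.1, hC ⟨hw.2, hsingle a ha w hw.1.2⟩⟩)
  refine ⟨fun a ha ha1 => (hle a ha ha1).trans (centralizerPPrimeCore_le_centralizer p a), hp',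
    hinv, fun a ha ha1 b hb hb1 => ?_⟩
  refine CfsgLib.Signalizer.le_of_hyperplanes (A := A) hA hA2 ?_
    (fun h => hp' a ha ha1 (h.trans (Subgroup.card_dvd_of_le inf_le_left))) fun F hFA hF => ?_
  · intro g hg
    refine CfsgLib.CoprimeAction.mem_normalizer_of_conj_mem fun w hw =>
      ⟨hinv a ha ha1 g hg w hw.1, ?_⟩
    have hgC := le_centralizer_singleton hA hb hg
    exact Subgroup.mul_mem _ (Subgroup.mul_mem _ hgC hw.2) (Subgroup.inv_mem _ hgC)
  obtain ⟨F', hF'A, hF', haF', hC⟩ :=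
    exists_hyperplane_centralized hA (Subgroup.zpowers_le.2 ha) (hne a ha ha1) hFA hF
  intro w hw
  have h1 := deltaSpan_inf_le hk hbal hA hAk hsolv hSFT _ (Subgroup.zpowers_le.2 ha) F' hF'A hF'
    haF' ⟨hspan a ha ha1 hw.1.1, hC ⟨hw.2, hsingle a ha w
      ((hle a ha ha1).trans (centralizerPPrimeCore_le_centralizer p a) hw.1.1)⟩⟩
  have hFk : p ^ k ≤ Nat.card F' := by
    refine Nat.le_of_mul_le_mul_left ?_ hp.out.pos
    rw [hF', ← pow_succ']
    exact (Nat.pow_le_pow_right hp.out.pos (by omega)).trans hAk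
  obtain ⟨D, hDF, hD⟩ := exists_le_card_pow (elemAb_isPGroup (elemAb_of_le hA hF'A)) hFk
  exact Subgroup.mem_iSup_of_mem (⟨D, hDF.trans hF'A, hD⟩ :
    {D : Subgroup G // D ≤ A ∧ Nat.card ↥D = p ^ k}) ⟨deltaFix_le_of_le hDF h1, hw.1.2⟩

end CfsgLib.Balance
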